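import Cfsg.Agent.Lib.Mult.McL.CvD

set_option autoImplicit false
set_option maxRecDepth 100000
set_option Elab.async false

namespace Cfsg.Agent.Mult.McL

open Cfsg.Agent.CG Cfsg.Agent.CG.McL

theorem cvc0 : cv0.chk tcR 0 680 = true := by decide +kernel
theorem cvc1 : cv0.chk tcR 680 145 = true := by decide +kernel
theorem cvc2 : cv0.chk tcR 825 124 = true := by decide +kernel
theorem cvc3 : cv0.chk tcR 949 97 = true := by decide +kernel
theorem cvc4 : cv0.chk tcR 1046 68 = true := by decide +kernel
theorem cvc5 : cv0.chk tcR 1114 38 = true := by decide +kernel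
theorem cvc6 : cv0.chk tcR 1152 61 = true := by decide +kernel
theorem cvc7 : cv0.chk tcR 1213 32 = true := by decide +kernel
theorem cvc8 : cv0.chk tcR 1245 58 = true := by decide +kernel
theorem cvc9 : cv0.chk tcR 1303 53 = true := by decide +kernel
theorem cvc10 : cv0.chk tcR 1356 48 = true := by decide +kernel
theorem cvc11 : cv0.chk tcR 1404 49 = true := by decide +kernel
theorem cvc12 : cv0.chk tcR 1453 36 = true := by decide +kernel
theorem cvc13 : cv0.chk tcR 1489 34 = true := by decide +kernel
theorem cvc14 : cv0.chk tcR 1523 25 = true := by decide +kernel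
theorem cvc15 : cv0.chk tcR 1548 24 = true := by decide +kernel
theorem cvc16 : cv0.chk tcR 1572 26 = true := by decide +kernel
theorem cvc17 : cv0.chkP cvP [1] = true := by decide +kernel
theorem cvc18 : chkPairs app bs tcS cvP = true := by decide +kernel

end Cfsg.Agent.Mult.McL
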