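import Cfsg.Agent.Lib.Mult.McL.CVC0
import Cfsg.Agent.Lib.Grp.McL.Main

set_option autoImplicit false
set_option maxRecDepth 100000
set_option Elab.async false

namespace Cfsg.Agent.Mult.McL

open Cfsg.Agent.CG Cfsg.Agent.CG.McL

theorem pairs : ∀ p ∈ cvP, (∀ a ∈ p.1 ++ p.2, a ∈ tcS) ∧ ev act.gen (p.1 ++ p.2) = ev act.gen (p.2 ++ p.1) :=
  pairs_of_chk base cvc18

theorem pl0 : PL tcR cvP (ZMod 3) ([1].map Nat.cast) :=
  haveI : NeZero cv0.m := ⟨by decide⟩
  Mono.pl (D := cv0) (by decide) (by decide +kernel)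
    (show cv0.chk tcR 0 1598 = true from (Mono.chk_append (Mono.chk_append (Mono.chk_append (Mono.chk_append (Mono.chk_append (Mono.chk_append (Mono.chk_append (Mono.chk_append (Mono.chk_append (Mono.chk_append (Mono.chk_append (Mono.chk_append (Mono.chk_append (Mono.chk_append (Mono.chk_append (Mono.chk_append cvc0 cvc1) cvc2) cvc3) cvc4) cvc5) cvc6) cvc7) cvc8) cvc9) cvc10) cvc11) cvc12) cvc13) cvc14) cvc15) cvc16))
    cvc17

theorem ex : EX PG (Multiplicative (ZMod 3)) :=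
  PL.ex bounds rels clS card.ge pl0 pairs (top_of_spanL (k := 3) (by decide +kernel))

end Cfsg.Agent.Mult.McL
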